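import Mathlib
import Cfsg.Agent.S0985
import Cfsg.Agent.Lib.Helper74.O720.Defs

set_option autoImplicit false

namespace Cfsg.Agent.Lib.Helper74.O720

variable {G : Type*} [Group G] [Finite G] [IsSimpleGroup G]

omit [IsSimpleGroup G] in
theorem D1_card_P (h : Nat.card G = 720) (P : Sylow 3 G) : Nat.card (P : Subgroup G) = 9 := by
  have : Fact (Nat.Prime 3) := ⟨by norm_num⟩
  have h1 : 3 ^ 2 ∣ Nat.card (P : Subgroup G) :=
    P.pow_dvd_card_of_pow_dvd_card (by rw [h]; norm_num)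
  obtain ⟨k, hk⟩ := P.2.exists_card_eq
  have h2 : Nat.card (P : Subgroup G) ∣ 720 := h ▸ Subgroup.card_subgroup_dvd_card _
  rw [hk] at h1 h2 ⊢
  have hk2 : 2 ≤ k := (Nat.pow_dvd_pow_iff_le_right (by norm_num)).1 h1
  have hk3 : k ≤ 2 := by
    by_contra hcon
    have : 3 ^ 3 ∣ 720 := (pow_dvd_pow 3 (by omega)).trans h2
    norm_num at this
  have : k = 2 := by omega
  rw [this]; norm_num

/-- [D1] -/
theorem D1 (h : Nat.card G = 720) (h40 : Nat.card (Sylow 3 G) = 40) :
    ∃ P R : Sylow 3 G, P ≠ R ∧ Nat.card ((P : Subgroup G) ⊓ (R : Subgroup G) : Subgroup G) = 3 := by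
  have : Fact (Nat.Prime 3) := ⟨by norm_num⟩
  obtain ⟨P, R, hPR, hidx⟩ := Cfsg.Agent.S0985.result (G := G) 3 2 (by rw [h40]; decide)
  refine ⟨P, R, hPR, ?_⟩
  have hP := D1_card_P h P
  have hR := D1_card_P h R
  have hmul := ((R : Subgroup G).subgroupOf (P : Subgroup G)).card_mul_index
  have hcard : Nat.card ((R : Subgroup G).subgroupOf (P : Subgroup G)) =
      Nat.card ((P : Subgroup G) ⊓ (R : Subgroup G) : Subgroup G) := by
    rw [← Subgroup.inf_subgroupOf_left]
    exact Nat.card_congr (Subgroup.subgroupOfEquivOfLe inf_le_left).toEquiv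
  rw [hcard, hP] at hmul
  have hne : Nat.card ((P : Subgroup G) ⊓ (R : Subgroup G) : Subgroup G) ≠ 9 := by
    intro h9
    apply hPR
    have e1 : (P : Subgroup G) ⊓ (R : Subgroup G) = (P : Subgroup G) :=
      Subgroup.eq_of_le_of_card_ge inf_le_left (by rw [h9, hP])
    have e2 : (P : Subgroup G) ≤ (R : Subgroup G) := e1 ▸ inf_le_right
    exact Sylow.ext (Subgroup.eq_of_le_of_card_ge e2 (by rw [hP, hR]))
  norm_num at hidx
  generalize ((R : Subgroup G).subgroupOf (P : Subgroup G)).index = i at *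
  generalize Nat.card ((P : Subgroup G) ⊓ (R : Subgroup G) : Subgroup G) = m at *
  interval_cases i <;> omega

end Cfsg.Agent.Lib.Helper74.O720
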