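import Mathlib
import Cfsg.Agent.Lib.Helper74.O720.Defs

set_option autoImplicit false

namespace Cfsg.Agent.Lib.Helper74.O720

variable {G : Type*} [Group G] [Finite G] [IsSimpleGroup G]

omit [IsSimpleGroup G] in
theorem E10_card_P (h : Nat.card G = 720) (P : Sylow 3 G) : Nat.card (P : Subgroup G) = 9 := by
  have : Fact (Nat.Prime 3) := ⟨by norm_num⟩
  have h1 : 3 ^ 2 ∣ Nat.card (P : Subgroup G) :=
    P.pow_dvd_card_of_pow_dvd_card (by rw [h]; norm_num)
  obtain ⟨k, hk⟩ := P.2.exists_card_eq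
  have h2 : Nat.card (P : Subgroup G) ∣ 720 := h ▸ Subgroup.card_subgroup_dvd_card _
  rw [hk] at h1 h2 ⊢
  have hk2 : 2 ≤ k := (Nat.pow_dvd_pow_iff_le_right (by norm_num)).1 h1
  have hk3 : k ≤ 2 := by
    by_contra hcon
    have : 3 ^ 3 ∣ 720 := (pow_dvd_pow 3 (by omega)).trans h2
    norm_num at this
  have : k = 2 := by omega
  rw [this]; norm_num

omit [IsSimpleGroup G] in
/-- a Sylow 3-subgroup of `G` inside a subgroup of order divisible by 9 -/
theorem E10_SY (h : Nat.card G = 720) (K : Subgroup G) (h9 : 9 ∣ Nat.card K) :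
    ∃ P' : Sylow 3 G, (P' : Subgroup G) ≤ K := by
  have : Fact (Nat.Prime 3) := ⟨by norm_num⟩
  obtain ⟨Q₀⟩ : Nonempty (Sylow 3 ↥K) := inferInstance
  have h1 : 3 ^ 2 ∣ Nat.card (Q₀ : Subgroup ↥K) :=
    Q₀.pow_dvd_card_of_pow_dvd_card (by norm_num; exact h9)
  set Q : Subgroup G := (Q₀ : Subgroup ↥K).map K.subtype with hQ
  have hQc : Nat.card Q = Nat.card (Q₀ : Subgroup ↥K) :=
    Subgroup.card_map_of_injective K.subtype_injective
  have hQp : IsPGroup 3 Q := Q₀.2.map K.subtype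
  obtain ⟨P', hP'⟩ := hQp.exists_le_sylow
  have hP'c := E10_card_P h P'
  have hQ9 : 9 ≤ Nat.card Q := by
    rw [hQc]
    exact Nat.le_of_dvd Nat.card_pos (by norm_num at h1; exact h1)
  have hQP : Q = (P' : Subgroup G) := Subgroup.eq_of_le_of_card_ge hP' (by rw [hP'c]; exact hQ9)
  refine ⟨P', ?_⟩
  rw [← hQP, hQ]
  exact Subgroup.map_subtype_le _

omit [IsSimpleGroup G] in
theorem E10_K0 {p : ℕ} [Fact p.Prime] (P P' : Sylow p G)
    (hP' : (P' : Subgroup G) ≤ Nz (P : Subgroup G)) : P' = P := by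
  have hsup : IsPGroup p ((P' : Subgroup G) ⊔ (P : Subgroup G) : Subgroup G) :=
    IsPGroup.to_sup_of_normal_right' P'.2 P.2 hP'
  have e1 := P.is_maximal' hsup le_sup_right
  have e2 := P'.is_maximal' hsup le_sup_left
  exact Sylow.ext (e2.symm.trans e1)

/-- [E10] -/
theorem E10 (h : Nat.card G = 720) (P : Sylow 3 G) (g : G) (hg : g ∉ Nz (P : Subgroup G)) :
    ¬ 9 ∣ Nat.card (Ig (Nz (P : Subgroup G)) g) := by
  intro h9
  have : Fact (Nat.Prime 3) := ⟨by norm_num⟩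
  obtain ⟨P', hP'⟩ := E10_SY h _ h9
  have h1 : P' = P := E10_K0 P P' (hP'.trans inf_le_left)
  have h2 : P' = g • P := by
    apply E10_K0 (g • P) P'
    rw [coe_smul_sylow, Nz_cj]
    exact hP'.trans inf_le_right
  apply hg
  apply mem_Nz_of_cj_eq
  rw [← coe_smul_sylow, ← h2, h1]

end Cfsg.Agent.Lib.Helper74.O720
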