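import Mathlib
import Cfsg.Agent.S0904
import Cfsg.Agent.Lib.Helper74.O720.Defs

set_option autoImplicit false

namespace Cfsg.Agent.Lib.Helper74.O720

variable {G : Type*} [Group G] [Finite G] [IsSimpleGroup G]

/-- [T1] -/
theorem no15 (h : Nat.card G = 720) (X : Subgroup G) (hX : Nat.card X = 3) : ¬ 5 ∣ Nat.card (Cz X) := by
  intro h5
  have : Fact (Nat.Prime 5) := ⟨by norm_num⟩
  obtain ⟨y, hy⟩ := exists_prime_orderOf_dvd_card' (G := ↥(Cz X)) 5 h5
  have hy5 : orderOf (y : G) = 5 := by rw [Subgroup.orderOf_coe, hy]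
  have hZc : Nat.card (Subgroup.zpowers (y : G)) = 5 := by rw [Nat.card_zpowers, hy5]
  have hZp : IsPGroup 5 (Subgroup.zpowers (y : G)) := IsPGroup.of_card (n := 1) (by rw [hZc]; norm_num)
  obtain ⟨S, hS⟩ := hZp.exists_le_sylow
  have hSc : Nat.card (S : Subgroup G) = 5 := by
    obtain ⟨k, hk⟩ := S.2.exists_card_eq
    have h2 : Nat.card (S : Subgroup G) ∣ 720 := h ▸ Subgroup.card_subgroup_dvd_card _
    have h1 : 5 ∣ Nat.card (S : Subgroup G) := by
      have := Subgroup.card_dvd_of_le hS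
      rwa [hZc] at this
    rw [hk] at h1 h2 ⊢
    rcases k with _ | _ | k
    · norm_num at h1
    · norm_num
    · exfalso
      have : 5 ^ 2 ∣ 720 := (pow_dvd_pow 5 (by omega)).trans h2
      norm_num at this
  have hZS : Subgroup.zpowers (y : G) = (S : Subgroup G) :=
    Subgroup.eq_of_le_of_card_ge hS (by rw [hSc, hZc])
  have hcen := Cfsg.Agent.S0904.result (G := G) 2 3 5 4 2 (by norm_num) (by norm_num) (by norm_num)
    (by norm_num) (by norm_num) (by rw [h]; norm_num) S
  have hZle : Subgroup.zpowers (y : G) ≤ Cz X := Subgroup.zpowers_le.2 y.2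
  have hXle : X ≤ Subgroup.centralizer ((Subgroup.zpowers (y : G) : Subgroup G) : Set G) :=
    Subgroup.le_centralizer_iff.1 hZle
  rw [hZS] at hXle
  have hXS : X ≤ (S : Subgroup G) := hXle.trans (le_of_eq hcen)
  have := Subgroup.card_dvd_of_le hXS
  rw [hX, hSc] at this
  norm_num at this

end Cfsg.Agent.Lib.Helper74.O720
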